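import Mathlib
import Cfsg.Agent.H956.FieldArith
set_option linter.all false

/-!
# Multisets of elements with a common `r`-th power not invariant under any map `a ↦ c / a`
-/

set_option autoImplicit false

namespace Cfsg.Agent.H956.BadMs

open Cfsg.Agent.H956.FieldArith

section pattern

variable {F : Type*} [Field F]

/-- pattern A: `t ζ, t, ..., t`. -/
theorem patternA {t ζ : F} (ht : t ≠ 0) (h1 : ζ ≠ 1) (h0 : ζ ≠ 0) (h2 : ζ ^ 2 ≠ 1) {n : ℕ} (hn : 3 ≤ n) (c : F) :
    ((t * ζ) ::ₘ Multiset.replicate (n - 1) t).map (fun a => c / a) ≠ (t * ζ) ::ₘ Multiset.replicate (n - 1) t := by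
  classical
  intro h
  have hne : t * ζ ≠ t := by
    intro h'
    exact h1 (mul_left_cancel₀ ht (by rw [h', mul_one]))
  rw [Multiset.map_cons, Multiset.map_replicate] at h
  have e1 := congrArg (Multiset.count t) h
  have e2 := congrArg (Multiset.count (t * ζ)) h
  rw [Multiset.count_cons, Multiset.count_replicate, Multiset.count_cons_of_ne hne.symm, Multiset.count_replicate,
    if_pos rfl] at e1
  rw [Multiset.count_cons, Multiset.count_replicate, Multiset.count_cons_self, Multiset.count_replicate,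
    if_neg hne.symm] at e2
  have hc : c / t = t := by
    by_contra hc
    rw [if_neg hc] at e1
    split_ifs at e1 <;> omega
  rw [if_neg (by rw [hc]; exact hne.symm)] at e2
  have hct : c = t * t := by rw [div_eq_iff ht] at hc; exact hc
  have h3 : ¬ (t * ζ = c / (t * ζ)) := by
    intro h'
    apply h2
    rw [hct] at h'
    field_simp at h'
    exact h'
  rw [if_neg h3] at e2
  omega

/-- pattern B: `ζ, ζ, ζ⁻², 1, ..., 1`. -/
theorem patternB {ζ : F} (h1 : ζ ≠ 1) (h0 : ζ ≠ 0) (h2 : ζ ^ 2 ≠ 1) {n : ℕ}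
    (hn : 9 ≤ n ∨ (6 ≤ n ∧ ζ ^ 3 ≠ 1)) (c : F) :
    (ζ ::ₘ ζ ::ₘ (ζ ^ 2)⁻¹ ::ₘ Multiset.replicate (n - 3) 1).map (fun a => c / a) ≠
      ζ ::ₘ ζ ::ₘ (ζ ^ 2)⁻¹ ::ₘ Multiset.replicate (n - 3) 1 := by
  classical
  intro h
  have h2' : (ζ ^ 2)⁻¹ ≠ 1 := by rwa [Ne, inv_eq_one]
  rw [Multiset.map_cons, Multiset.map_cons, Multiset.map_cons, Multiset.map_replicate] at h
  have e1 := congrArg (Multiset.count 1) h
  have e2 := congrArg (Multiset.count ζ) h
  simp only [Multiset.count_cons, Multiset.count_replicate] at e1 e2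
  have hc : c = 1 := by
    by_contra hc
    rw [if_neg (show ¬ (c / 1 = 1) by rwa [div_one]), if_pos trivial, if_neg h1.symm, if_neg h2'.symm] at e1
    by_cases hcz : 1 = c / ζ
    · rw [if_pos hcz] at e1
      have hcz' : c = ζ := by rw [eq_div_iff h0, one_mul] at hcz; exact hcz.symm
      rcases hn with hn | ⟨hn, h3⟩
      · split_ifs at e1 <;> omega
      · rw [if_neg (by
          rw [hcz', div_inv_eq_mul]
          intro h'
          apply h3
          rw [pow_succ', ← h'])] at e1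
        omega
    · rw [if_neg hcz] at e1
      split_ifs at e1 <;> omega
  subst hc
  have i1 : ¬ (ζ = 1 / ζ) := by
    intro h'
    apply h2
    rw [eq_div_iff h0] at h'
    rw [pow_two, h']
  have i2 : ¬ (ζ = 1 / (ζ ^ 2)⁻¹) := by
    intro h'
    apply h1
    rw [one_div, inv_inv, pow_two] at h'
    exact (mul_left_cancel₀ h0 (by rw [mul_one]; exact h'.symm : ζ * ζ = ζ * 1))
  rw [if_neg i1, if_neg i2, if_neg (show ¬ ((1 : F) / 1 = ζ) by rw [div_one]; exact h1.symm), if_pos trivial] at e2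
  omega

end pattern

/-- **A multiset of `n` elements of `F` with product one, the same `r`-th power, in the subgroup of order `N`, which is
not invariant under any map `a ↦ c / a`.** -/
theorem exists_bad {F : Type*} [Field F] [Fintype F] {q : ℕ} (hq : Fintype.card F = q) {r : ℕ} (hrp : r.Prime)
    (hr2 : r ≠ 2) {N : ℕ} (hN : N ∣ q - 1) (hN0 : N ≠ 0) (hrN : r ∣ N) {n : ℕ} (hn : 3 ≤ n) (hgap : ¬ (n = 6 ∧ r = 3))
    (hneg : ¬ ((r = 3 ∨ r = 5) ∧ n = r ∧ padicValNat r N = 1)) :
    ∃ (m : Multiset F) (s : F), Multiset.card m = n ∧ m.prod = 1 ∧ s ≠ 0 ∧ (∀ a ∈ m, a ^ r = s) ∧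
      (∀ a ∈ m, a ^ N = 1) ∧ (∃ a ∈ m, ∃ b ∈ m, a ≠ b) ∧ ∀ c : F, m.map (fun a => c / a) ≠ m := by
  have hr3 : 3 ≤ r := by
    have := hrp.two_le
    omega
  have : Fact r.Prime := ⟨hrp⟩
  -- pattern A in general
  have hA : ∀ t ζ : F, t ≠ 0 → ζ ≠ 1 → ζ ≠ 0 → ζ ^ 2 ≠ 1 → t ^ n * ζ = 1 → ζ ^ r = 1 → t ^ N = 1 → ζ ^ N = 1 →
      ∃ (m : Multiset F) (s : F), Multiset.card m = n ∧ m.prod = 1 ∧ s ≠ 0 ∧ (∀ a ∈ m, a ^ r = s) ∧
      (∀ a ∈ m, a ^ N = 1) ∧ (∃ a ∈ m, ∃ b ∈ m, a ≠ b) ∧ ∀ c : F, m.map (fun a => c / a) ≠ m := by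
    intro t ζ ht h1 h0 h2 htn hζr htN hζN
    refine ⟨(t * ζ) ::ₘ Multiset.replicate (n - 1) t, t ^ r, ?_, ?_, pow_ne_zero _ ht, ?_, ?_, ?_,
      patternA ht h1 h0 h2 hn⟩
    · rw [Multiset.card_cons, Multiset.card_replicate]; omega
    · rw [Multiset.prod_cons, Multiset.prod_replicate]
      have : t ^ n = t * t ^ (n - 1) := by rw [← pow_succ']; congr 1; omega
      rw [this] at htn
      rw [← htn]; ring
    · intro a ha
      rcases Multiset.mem_cons.1 ha with h | h
      · rw [h, mul_pow, hζr, mul_one]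
      · rw [Multiset.eq_of_mem_replicate h]
    · intro a ha
      rcases Multiset.mem_cons.1 ha with h | h
      · rw [h, mul_pow, htN, hζN, mul_one]
      · rw [Multiset.eq_of_mem_replicate h, htN]
    · refine ⟨t * ζ, by simp, t, ?_, ?_⟩
      · apply Multiset.mem_cons_of_mem
        rw [Multiset.mem_replicate]
        exact ⟨by omega, rfl⟩
      · intro h'
        exact h1 (mul_left_cancel₀ ht (by rw [h', mul_one]))
  -- a primitive `r`-th root of unity
  obtain ⟨ζ, hζ⟩ := exists_prim (F := F) hq (hrN.trans hN)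
  have hζ0 : ζ ≠ 0 := hζ.ne_zero hrp.ne_zero
  have hζ1 : ζ ≠ 1 := hζ.ne_one (by omega)
  have hζ2 : ζ ^ 2 ≠ 1 := by
    intro h
    have := Nat.le_of_dvd (by norm_num) (hζ.dvd_of_pow_eq_one _ h)
    omega
  have hζN : ζ ^ N = 1 := by
    obtain ⟨k, hk⟩ := hrN
    rw [hk, pow_mul, hζ.pow_eq_one, one_pow]
  by_cases hrn : r ∣ n
  · by_cases hcase : n = r ∧ 2 ≤ padicValNat r N
    · obtain ⟨hnr, hv⟩ := hcase
      have hr2N : r ^ 2 ∣ N := (pow_dvd_pow r hv).trans pow_padicValNat_dvd
      obtain ⟨t, ht⟩ := exists_prim (F := F) hq (hr2N.trans hN)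
      have ht0 : t ≠ 0 := ht.ne_zero (pow_ne_zero _ hrp.ne_zero)
      have htr : IsPrimitiveRoot (t ^ r) r := ht.pow (pow_pos hrp.pos 2) (by ring)
      have htri : IsPrimitiveRoot (t ^ r)⁻¹ r := htr.inv
      have htN : t ^ N = 1 := by
        obtain ⟨k, hk⟩ := hr2N
        rw [hk, pow_mul, ht.pow_eq_one, one_pow]
      refine hA t (t ^ r)⁻¹ ht0 (htri.ne_one (by omega)) (htri.ne_zero hrp.ne_zero) ?_ ?_ htri.pow_eq_one htN ?_
      · intro h
        have := Nat.le_of_dvd (by norm_num) (htri.dvd_of_pow_eq_one _ h)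
        omega
      · rw [hnr, mul_inv_cancel₀ (pow_ne_zero _ ht0)]
      · rw [inv_pow, ← pow_mul, mul_comm, pow_mul, htN, one_pow, inv_one]
    · have hv1 : 1 ≤ padicValNat r N := one_le_padicValNat_of_dvd hN0 hrN
      have hB : 9 ≤ n ∨ (6 ≤ n ∧ ζ ^ 3 ≠ 1) := by
        obtain ⟨k, hk⟩ := hrn
        have hζ3 : 5 ≤ r → ζ ^ 3 ≠ 1 := by
          intro hr5 h
          have := Nat.le_of_dvd (by norm_num) (hζ.dvd_of_pow_eq_one _ h)
          omega
        have hr4 : r ≠ 4 := by rintro rfl; exact absurd hrp (by norm_num)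
        have hr6 : r ≠ 6 := by rintro rfl; exact absurd hrp (by norm_num)
        rcases Nat.lt_or_ge k 2 with hk2 | hk2
        · have hk1 : k = 1 := by
            rcases Nat.lt_or_ge k 1 with h | h
            · have : k = 0 := by omega
              rw [this, mul_zero] at hk
              omega
            · omega
          rw [hk1, mul_one] at hk
          have hr7 : 7 ≤ r := by
            by_contra hlt
            have : r = 3 ∨ r = 5 := by omega
            refine hneg ⟨this, hk, ?_⟩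
            by_contra hne
            exact hcase ⟨hk, by omega⟩
          exact Or.inr ⟨by omega, hζ3 (by omega)⟩
        · by_cases hr5 : 5 ≤ r
          · refine Or.inr ⟨?_, hζ3 hr5⟩
            rw [hk]; nlinarith
          · have hr3' : r = 3 := by omega
            left
            by_contra hlt
            have : k = 2 := by
              rw [hk, hr3'] at hlt
              omega
            exact hgap ⟨by rw [hk, hr3', this], hr3'⟩
      have hn6 : 6 ≤ n := by omega
      refine ⟨ζ ::ₘ ζ ::ₘ (ζ ^ 2)⁻¹ ::ₘ Multiset.replicate (n - 3) 1, 1, ?_, ?_, one_ne_zero, ?_, ?_, ?_,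
        patternB hζ1 hζ0 hζ2 hB⟩
      · simp only [Multiset.card_cons, Multiset.card_replicate]; omega
      · simp only [Multiset.prod_cons, Multiset.prod_replicate, one_pow, mul_one]
        rw [← mul_assoc, ← pow_two, mul_inv_cancel₀ (pow_ne_zero _ hζ0)]
      · intro a ha
        rcases Multiset.mem_cons.1 ha with h | ha
        · rw [h, hζ.pow_eq_one]
        rcases Multiset.mem_cons.1 ha with h | ha
        · rw [h, hζ.pow_eq_one]
        rcases Multiset.mem_cons.1 ha with h | ha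
        · rw [h, inv_pow, ← pow_mul, mul_comm, pow_mul, hζ.pow_eq_one, one_pow, inv_one]
        · rw [Multiset.eq_of_mem_replicate ha, one_pow]
      · intro a ha
        rcases Multiset.mem_cons.1 ha with h | ha
        · rw [h, hζN]
        rcases Multiset.mem_cons.1 ha with h | ha
        · rw [h, hζN]
        rcases Multiset.mem_cons.1 ha with h | ha
        · rw [h, inv_pow, ← pow_mul, mul_comm, pow_mul, hζN, one_pow, inv_one]
        · rw [Multiset.eq_of_mem_replicate ha, one_pow]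
      · refine ⟨ζ, by simp, 1, ?_, hζ1⟩
        apply Multiset.mem_cons_of_mem
        apply Multiset.mem_cons_of_mem
        apply Multiset.mem_cons_of_mem
        rw [Multiset.mem_replicate]
        exact ⟨by omega, rfl⟩
  · -- `r` does not divide `n`
    have hn0 : (n : ZMod r) ≠ 0 := by rwa [Ne, ZMod.natCast_eq_zero_iff]
    let k : ℕ := (-(n : ZMod r)⁻¹).val
    have hk : ((n * k + 1 : ℕ) : ZMod r) = 0 := by
      rw [Nat.cast_add, Nat.cast_mul, ZMod.natCast_zmod_val, Nat.cast_one, mul_neg, mul_inv_cancel₀ hn0]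
      ring
    rw [ZMod.natCast_eq_zero_iff] at hk
    refine hA (ζ ^ k) ζ (pow_ne_zero _ hζ0) hζ1 hζ0 hζ2 ?_ hζ.pow_eq_one ?_ hζN
    · rw [← pow_mul, ← pow_succ, mul_comm k n]
      obtain ⟨l, hl⟩ := hk
      rw [hl, pow_mul, hζ.pow_eq_one, one_pow]
    · rw [← pow_mul, mul_comm, pow_mul, hζN, one_pow]

end Cfsg.Agent.H956.BadMs
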