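import Mathlib
import Cfsg.Agent.H956.EigMult
import Cfsg.Agent.H956.Conj
set_option linter.all false

/-!
# Diagonal elements with a prescribed multiset of entries; matrices with a scalar square; transvections
-/

set_option autoImplicit false

namespace Cfsg.Agent.H956.DiagElt

open Matrix Polynomial Module
open scoped MatrixGroups
open Cfsg.Agent.H956.EigMult Cfsg.Agent.H956.Conj

variable {ι : Type*} [Fintype ι] [DecidableEq ι] {F : Type*} [Field F]

/-- a family with a prescribed multiset of values -/
theorem exists_family {α : Type*} (m : Multiset α) (hc : Multiset.card m = Fintype.card ι) :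
    ∃ d : ι → α, (Finset.univ : Finset ι).val.map d = m := by
  classical
  induction m using Quotient.inductionOn with
  | h l =>
    have hl : l.length = Fintype.card ι := by simpa using hc
    let e : ι ≃ Fin l.length := Fintype.equivFinOfCardEq hl.symm
    refine ⟨fun i => l.get (e i), ?_⟩
    have h1 : (Finset.univ : Finset ι).val.map (fun i => l.get (e i)) =
        ((Finset.univ : Finset ι).val.map e).map l.get := by rw [Multiset.map_map]; rfl
    rw [h1, Multiset.map_univ_val_equiv, Fin.univ_val_map, List.ofFn_get]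
    rfl

/-- a diagonal matrix with a prescribed multiset of non-zero entries -/
theorem exists_diag_elt (m : Multiset F) (h0 : ∀ a ∈ m, a ≠ 0) (hc : Multiset.card m = Fintype.card ι) :
    ∃ (x : GL ι F) (d : ι → F), (x : Matrix ι ι F) = Matrix.diagonal d ∧ (∀ i, d i ≠ 0) ∧
      (Finset.univ : Finset ι).val.map d = m ∧ (x : Matrix ι ι F).det = m.prod := by
  obtain ⟨d, hd⟩ := exists_family (ι := ι) m hc
  have hd0 : ∀ i, d i ≠ 0 := fun i => h0 _ (by rw [← hd]; exact Multiset.mem_map_of_mem _ (Finset.mem_univ_val i))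
  refine ⟨diagU d hd0, d, rfl, hd0, hd, ?_⟩
  rw [coe_diagU, Matrix.det_diagonal, ← hd]
  rfl

theorem eig_of_eq_diagonal {E : Type*} [Field E] [Algebra F E] (x : Matrix ι ι F) (d : ι → F) (m : Multiset F)
    (hx : x = Matrix.diagonal d) (hm : (Finset.univ : Finset ι).val.map d = m) :
    eig E x = m.map (algebraMap F E) := by
  rw [hx, eig_diagonal, ← hm, Multiset.map_map]
  rfl

/-- powers of a diagonal matrix whose entries have the same `r`-th power -/
theorem diagonal_pow_eq (d : ι → F) (r : ℕ) (s : F) (h : ∀ i, d i ^ r = s) :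
    (Matrix.diagonal d) ^ r = s • (1 : Matrix ι ι F) := by
  rw [Matrix.diagonal_pow, ← Matrix.diagonal_one, ← Matrix.diagonal_smul]
  congr 1
  ext i
  simp [h i]

/-- a matrix with square `s ^ 2` is diagonalisable with eigenvalues `± s`. -/
theorem exists_of_sq_eq (h2 : (2 : F) ≠ 0) {s : F} (hs : s ≠ 0) (x : Matrix ι ι F)
    (hx : x ^ 2 = (s ^ 2) • (1 : Matrix ι ι F)) :
    ∃ (S : GL ι F) (d : ι → F), x = (S : Matrix ι ι F) * Matrix.diagonal d * ((S⁻¹ : GL ι F) : Matrix ι ι F) ∧
      ∀ i, d i = s ∨ d i = -s := by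
  have hprim : IsPrimitiveRoot (-1 : F) 2 := by
    have : (-1 : F) ≠ 1 := by
      intro h
      apply h2
      have : (1 : F) + 1 = 0 := by nth_rewrite 1 [← h]; ring
      rw [← one_add_one_eq_two]; exact this
    exact IsPrimitiveRoot.mk_of_lt _ (by norm_num) (by norm_num) (by
      intro l hl0 hl2
      have : l = 1 := by omega
      rw [this, pow_one]
      assumption)
  have htop : ⨆ a, Module.End.eigenspace (Matrix.toLin' x) a = ⊤ := by
    refine EigBasis.iSup_eigenspace_of_pow (by norm_num) hprim _ hs ?_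
    rw [← Matrix.toLin'_pow, hx, map_smul, Matrix.toLin'_one]
    rfl
  obtain ⟨S, d, hSd⟩ := EigBasis.exists_conj_diagonal _ htop
  refine ⟨S, d, hSd, ?_⟩
  have h3 : Matrix.diagonal (fun i => d i ^ 2) = (s ^ 2) • (1 : Matrix ι ι F) := by
    have h4 : (S : Matrix ι ι F) * Matrix.diagonal (fun i => d i ^ 2) * ((S⁻¹ : GL ι F) : Matrix ι ι F) =
        (s ^ 2) • (1 : Matrix ι ι F) := by
      rw [← hx, pow_two, hSd]
      calc (S : Matrix ι ι F) * Matrix.diagonal (fun i => d i ^ 2) * ((S⁻¹ : GL ι F) : Matrix ι ι F)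
          = (S : Matrix ι ι F) * (Matrix.diagonal d * (((S⁻¹ : GL ι F) : Matrix ι ι F) * (S : Matrix ι ι F)) *
            Matrix.diagonal d) * ((S⁻¹ : GL ι F) : Matrix ι ι F) := by
            rw [inv_mul_self', Matrix.mul_one, Matrix.diagonal_mul_diagonal]
            simp only [pow_two]
        _ = _ := by simp only [Matrix.mul_assoc]
    calc Matrix.diagonal (fun i => d i ^ 2)
        = (((S⁻¹ : GL ι F) : Matrix ι ι F) * (S : Matrix ι ι F)) * Matrix.diagonal (fun i => d i ^ 2) *
          (((S⁻¹ : GL ι F) : Matrix ι ι F) * (S : Matrix ι ι F)) := by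
          rw [inv_mul_self', Matrix.one_mul, Matrix.mul_one]
      _ = ((S⁻¹ : GL ι F) : Matrix ι ι F) * ((S : Matrix ι ι F) * Matrix.diagonal (fun i => d i ^ 2) *
          ((S⁻¹ : GL ι F) : Matrix ι ι F)) * (S : Matrix ι ι F) := by simp only [Matrix.mul_assoc]
      _ = _ := by rw [h4, Matrix.mul_smul, Matrix.smul_mul, Matrix.mul_one, inv_mul_self']
  intro i
  have h5 := congrFun (congrFun h3 i) i
  simp only [Matrix.diagonal_apply_eq, Matrix.smul_apply, Matrix.one_apply_eq, smul_eq_mul, mul_one] at h5
  exact sq_eq_sq_iff_eq_or_eq_neg.1 h5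

/-- A transvection of order `p` with `x - 1` of rank one. -/
theorem exists_transvection (p : ℕ) [Fact p.Prime] [CharP F p] (i j : ι) (hij : i ≠ j) :
    ∃ x : GL ι F, (x : Matrix ι ι F) = Matrix.transvection i j 1 ∧ (x : Matrix ι ι F).det = 1 ∧ x ^ p = 1 ∧
      ((x : Matrix ι ι F) - 1).rank = 1 := by
  let x : GL ι F := ⟨Matrix.transvection i j 1, Matrix.transvection i j (-1), by
    rw [Matrix.transvection_mul_transvection_same i j hij]; simp, by
    rw [Matrix.transvection_mul_transvection_same i j hij]; simp⟩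
  have hpow : ∀ k : ℕ, ((x ^ k : GL ι F) : Matrix ι ι F) = Matrix.transvection i j (k : F) := by
    intro k
    induction k with
    | zero => simp
    | succ k ih =>
      rw [pow_succ, Units.val_mul, ih]
      change Matrix.transvection i j (k : F) * Matrix.transvection i j 1 = _
      rw [Matrix.transvection_mul_transvection_same i j hij, Nat.cast_succ]
  refine ⟨x, rfl, ?_, ?_, ?_⟩
  · change (Matrix.transvection i j (1 : F)).det = 1
    exact Matrix.det_transvection_of_ne i j hij 1
  · ext1
    rw [hpow, CharP.cast_eq_zero, Matrix.transvection_zero, Units.val_one]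
  · change (Matrix.transvection i j (1 : F) - 1).rank = 1
    have h1 : Matrix.transvection i j (1 : F) - 1 = Matrix.vecMulVec (Pi.single i 1) (Pi.single j 1) := by
      rw [Matrix.transvection, add_sub_cancel_left]
      ext a b
      simp [Matrix.vecMulVec_apply, Matrix.single_apply, Pi.single_apply]
      grind
    rw [h1]
    apply le_antisymm (Matrix.rank_vecMulVec_le _ _)
    rw [Nat.one_le_iff_ne_zero]
    intro h2
    rw [Matrix.rank, Submodule.finrank_eq_zero, LinearMap.range_eq_bot] at h2
    have h3 := congrFun (LinearMap.congr_fun h2 (Pi.single j 1)) i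
    simp [Matrix.vecMulVec_apply] at h3

end Cfsg.Agent.H956.DiagElt
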