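import Mathlib
import Cfsg.Agent.H956.ConjIrr
import Cfsg.Agent.H956.DiagElt
import Cfsg.Agent.H956.FieldArith
set_option linter.all false

-- part: H956/DetIrr
section
/-!
# The determinant of a matrix killed by an irreducible polynomial
-/

set_option autoImplicit false

namespace Cfsg.Agent.H956.DetIrr

open Matrix Polynomial Module
open scoped MatrixGroups
open Cfsg.Agent.H956.ConjIrr

variable {ι : Type*} [Fintype ι] [DecidableEq ι] {F : Type*} [Field F] {P : F[X]}

theorem det_eq (hP : Irreducible P) (hm : P.Monic) (x : Matrix ι ι F) (hx : aeval x P = 0) :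
    ∃ k : ℕ, P.natDegree * k = Fintype.card ι ∧ x.det = ((-1) ^ P.natDegree * P.coeff 0) ^ k := by
  classical
  have := Fact.mk hP
  let _ := modK P x hx
  have tx : IsScalarTower F (AdjoinRoot P) (VM x) := by
    refine ⟨fun a k v => ?_⟩
    rw [Algebra.smul_def, mul_smul]
    exact act_of P _ hx a _
  have fx : Module.Finite (AdjoinRoot P) (VM x) := Module.Finite.of_restrictScalars_finite F _ _
  have fK : Module.Finite F (AdjoinRoot P) := (AdjoinRoot.powerBasis hP.ne_zero).finite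
  refine ⟨finrank (AdjoinRoot P) (VM x), ?_, ?_⟩
  · have h1 := finrank_mul_finrank F (AdjoinRoot P) (VM x)
    rw [finrank_VM, (AdjoinRoot.powerBasis hP.ne_zero).finrank, AdjoinRoot.powerBasis_dim] at h1
    exact h1
  · let f : VM x →ₗ[AdjoinRoot P] VM x := LinearMap.lsmul (AdjoinRoot P) (VM x) (AdjoinRoot.root P)
    have hdetf : LinearMap.det f = (AdjoinRoot.root P) ^ finrank (AdjoinRoot P) (VM x) := by
      have h1 : f = (AdjoinRoot.root P) • (LinearMap.id : VM x →ₗ[AdjoinRoot P] VM x) := by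
        ext v
        rfl
      rw [h1, LinearMap.det_smul, LinearMap.det_id, mul_one]
    have hnorm : Algebra.norm F (AdjoinRoot.root P) = (-1) ^ P.natDegree * P.coeff 0 := by
      have h1 := Algebra.PowerBasis.norm_gen_eq_coeff_zero_minpoly (AdjoinRoot.powerBasis hP.ne_zero)
      rw [AdjoinRoot.powerBasis_gen, AdjoinRoot.powerBasis_dim, AdjoinRoot.minpoly_root hP.ne_zero, hm.leadingCoeff,
        inv_one, C_1, mul_one] at h1
      exact h1
    have hdetF : LinearMap.det (f.restrictScalars F) =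
        ((-1) ^ P.natDegree * P.coeff 0) ^ finrank (AdjoinRoot P) (VM x) := by
      rw [LinearMap.det_restrictScalars, hdetf, map_pow, hnorm]
    have h2 : (f.restrictScalars F : VM x →ₗ[F] VM x) = (Matrix.toLin' x : (ι → F) →ₗ[F] (ι → F)) := by
      apply LinearMap.ext
      intro v
      exact act_root P x hx v
    rw [← hdetF, h2]
    exact (LinearMap.det_toLin' x).symm

/-- `x ^ r = z` with `X ^ r - z` irreducible. -/
theorem det_of_pow_eq {r : ℕ} (hr : r ≠ 0) {z : F} (hP : Irreducible (X ^ r - C z : F[X])) (x : Matrix ι ι F)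
    (hx : x ^ r = z • (1 : Matrix ι ι F)) :
    ∃ k : ℕ, r * k = Fintype.card ι ∧ x.det = ((-1) ^ (r + 1) * z) ^ k := by
  obtain ⟨k, hk1, hk2⟩ := det_eq hP (monic_X_pow_sub_C z hr) x (by
    rw [map_sub, map_pow, aeval_X, aeval_C, hx, Algebra.algebraMap_eq_smul_one, sub_self])
  rw [natDegree_X_pow_sub_C] at hk1 hk2
  refine ⟨k, hk1, ?_⟩
  rw [hk2]
  congr 1
  rw [coeff_sub, coeff_X_pow, coeff_C_zero, if_neg (fun h => hr h.symm), zero_sub, pow_succ]
  ring

theorem irreducible_sq {z : F} (h : ¬ IsSquare z) : Irreducible (X ^ 2 - C z : F[X]) := by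
  apply (X_pow_sub_C_irreducible_iff_of_prime Nat.prime_two).2
  intro b hb
  exact h ⟨b, by rw [← hb, pow_two]⟩

end Cfsg.Agent.H956.DetIrr
end

-- part: H956/SymMs
section
/-!
# Sum-zero families of `r` elements of `ℤ/r`, `r = 3, 5`, are symmetric under a reflection
-/

set_option autoImplicit false

namespace Cfsg.Agent.H956.SymMs

theorem of_injective {r : ℕ} [NeZero r] (a : Fin r → ZMod r) (h : Function.Injective a) :
    ∃ π : Equiv.Perm (Fin r), (∀ i, π (π i) = i) ∧ ∃ c, ∀ i, a i + a (π i) = c := by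
  have hb : Function.Bijective a := by
    rw [Fintype.bijective_iff_injective_and_card]
    exact ⟨h, by rw [Fintype.card_fin, ZMod.card]⟩
  let e := Equiv.ofBijective a hb
  have he : ∀ i, e i = a i := fun i => rfl
  have hes : ∀ x, a (e.symm x) = x := fun x => e.apply_symm_apply x
  refine ⟨(e.trans (Equiv.neg _)).trans e.symm, fun i => ?_, 0, fun i => ?_⟩
  · simp only [Equiv.trans_apply, Equiv.neg_apply, Equiv.apply_symm_apply, neg_neg, Equiv.symm_apply_apply]
  · simp only [Equiv.trans_apply, Equiv.neg_apply]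
    rw [hes, he, add_neg_cancel]

theorem three_dec : ∀ x y z : ZMod 3, x + y + z = 0 → (x = y ∧ y = z) ∨ (x ≠ y ∧ y ≠ z ∧ x ≠ z) := by decide

theorem three (a : Fin 3 → ZMod 3) (ha : ∑ i, a i = 0) :
    ∃ π : Equiv.Perm (Fin 3), (∀ i, π (π i) = i) ∧ ∃ c, ∀ i, a i + a (π i) = c := by
  rw [Fin.sum_univ_three] at ha
  rcases three_dec _ _ _ ha with ⟨h1, h2⟩ | ⟨h1, h2, h3⟩
  · refine ⟨1, fun i => rfl, a 0 + a 0, fun i => ?_⟩
    have : ∀ i, a i = a 0 := by
      intro i
      fin_cases i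
      · rfl
      · exact h1.symm
      · exact (h1.trans h2).symm
    rw [Equiv.Perm.coe_one, id, this]
  · apply of_injective
    intro i j hij
    fin_cases i <;> fin_cases j <;> first
      | rfl
      | exact absurd hij h1
      | exact absurd hij h2
      | exact absurd hij h3
      | exact absurd hij.symm h1
      | exact absurd hij.symm h2
      | exact absurd hij.symm h3

theorem five_dec : ∀ t x y z : ZMod 5, t + t + x + y + z = 0 →
    (x = t ∧ y + z = t + t) ∨ (y = t ∧ x + z = t + t) ∨ (z = t ∧ x + y = t + t) ∨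
    (x = y ∧ z + z = t + x) ∨ (x = z ∧ y + y = t + x) ∨ (y = z ∧ x + x = t + y) := by decide

theorem five_idx : ∀ i j : Fin 5, i ≠ j → ∃ k l m : Fin 5, i ≠ k ∧ i ≠ l ∧ i ≠ m ∧ j ≠ k ∧ j ≠ l ∧ j ≠ m ∧ k ≠ l ∧
    k ≠ m ∧ l ≠ m ∧ ∀ n, n = i ∨ n = j ∨ n = k ∨ n = l ∨ n = m := by decide

theorem sum_five {i j k l m : Fin 5} (hij : i ≠ j) (hik : i ≠ k) (hil : i ≠ l) (him : i ≠ m) (hjk : j ≠ k) (hjl : j ≠ l)
    (hjm : j ≠ m) (hkl : k ≠ l) (hkm : k ≠ m) (hlm : l ≠ m) (hall : ∀ n, n = i ∨ n = j ∨ n = k ∨ n = l ∨ n = m)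
    (a : Fin 5 → ZMod 5) : ∑ n, a n = a i + a j + a k + a l + a m := by
  have h : (Finset.univ : Finset (Fin 5)) = {i, j, k, l, m} := by
    ext n
    simp only [Finset.mem_univ, Finset.mem_insert, Finset.mem_singleton, true_iff]
    exact hall n
  rw [h, Finset.sum_insert (by simp [hij, hik, hil, him]), Finset.sum_insert (by simp [hjk, hjl, hjm]),
    Finset.sum_insert (by simp [hkl, hkm]), Finset.sum_insert (by simp [hlm]), Finset.sum_singleton]
  ring

/-- `(l m)` exchanges two elements with the same sum as the common value `t` of the other three, doubled. -/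
theorem caseSwap {i j k l m : Fin 5} (hil : i ≠ l) (him : i ≠ m) (hjl : j ≠ l)
    (hjm : j ≠ m) (hkl : k ≠ l) (hkm : k ≠ m) (hall : ∀ n, n = i ∨ n = j ∨ n = k ∨ n = l ∨ n = m)
    (a : Fin 5 → ZMod 5) (h1 : a i = a j) (h2 : a k = a j) (h3 : a l + a m = a j + a j) :
    ∃ π : Equiv.Perm (Fin 5), (∀ i, π (π i) = i) ∧ ∃ c, ∀ i, a i + a (π i) = c := by
  refine ⟨Equiv.swap l m, fun n => by simp, a j + a j, fun n => ?_⟩
  rcases hall n with rfl | rfl | rfl | rfl | rfl
  · rw [Equiv.swap_apply_of_ne_of_ne hil him, h1]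
  · rw [Equiv.swap_apply_of_ne_of_ne hjl hjm]
  · rw [Equiv.swap_apply_of_ne_of_ne hkl hkm, h2]
  · rw [Equiv.swap_apply_left, h3]
  · rw [Equiv.swap_apply_right, add_comm, h3]

/-- `(i k)(j l)`. -/
theorem caseSwap2 {i j k l m : Fin 5} (hij : i ≠ j) (hik : i ≠ k) (hil : i ≠ l) (him : i ≠ m) (hjk : j ≠ k)
    (hjl : j ≠ l) (hjm : j ≠ m) (hkl : k ≠ l) (hkm : k ≠ m) (hlm : l ≠ m)
    (hall : ∀ n, n = i ∨ n = j ∨ n = k ∨ n = l ∨ n = m)
    (a : Fin 5 → ZMod 5) (h1 : a i = a j) (h2 : a k = a l) (h3 : a m + a m = a i + a k) :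
    ∃ π : Equiv.Perm (Fin 5), (∀ i, π (π i) = i) ∧ ∃ c, ∀ i, a i + a (π i) = c := by
  have e1 : (Equiv.swap i k * Equiv.swap j l) i = k := by
    rw [Equiv.Perm.mul_apply, Equiv.swap_apply_of_ne_of_ne hij hil, Equiv.swap_apply_left]
  have e2 : (Equiv.swap i k * Equiv.swap j l) j = l := by
    rw [Equiv.Perm.mul_apply, Equiv.swap_apply_left, Equiv.swap_apply_of_ne_of_ne hil.symm hkl.symm]
  have e3 : (Equiv.swap i k * Equiv.swap j l) k = i := by
    rw [Equiv.Perm.mul_apply, Equiv.swap_apply_of_ne_of_ne hjk.symm hkl, Equiv.swap_apply_right]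
  have e4 : (Equiv.swap i k * Equiv.swap j l) l = j := by
    rw [Equiv.Perm.mul_apply, Equiv.swap_apply_right, Equiv.swap_apply_of_ne_of_ne hij.symm hjk]
  have e5 : (Equiv.swap i k * Equiv.swap j l) m = m := by
    rw [Equiv.Perm.mul_apply, Equiv.swap_apply_of_ne_of_ne hjm.symm hlm.symm,
      Equiv.swap_apply_of_ne_of_ne him.symm hkm.symm]
  refine ⟨Equiv.swap i k * Equiv.swap j l, fun n => ?_, a i + a k, fun n => ?_⟩
  · rcases hall n with rfl | rfl | rfl | rfl | rfl
    · rw [e1, e3]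
    · rw [e2, e4]
    · rw [e3, e1]
    · rw [e4, e2]
    · rw [e5, e5]
  · rcases hall n with rfl | rfl | rfl | rfl | rfl
    · rw [e1]
    · rw [e2, h1, h2]
    · rw [e3, add_comm]
    · rw [e4, h1, h2, add_comm]
    · rw [e5, h3]

theorem five (a : Fin 5 → ZMod 5) (ha : ∑ i, a i = 0) :
    ∃ π : Equiv.Perm (Fin 5), (∀ i, π (π i) = i) ∧ ∃ c, ∀ i, a i + a (π i) = c := by
  by_cases hinj : Function.Injective a
  · exact of_injective a hinj
  · rw [Function.Injective] at hinj
    push Not at hinj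
    obtain ⟨i, j, hij, hne⟩ := hinj
    obtain ⟨k, l, m, hik, hil, him, hjk, hjl, hjm, hkl, hkm, hlm, hall⟩ := five_idx i j hne
    rw [sum_five hne hik hil him hjk hjl hjm hkl hkm hlm hall, hij] at ha
    rcases five_dec _ _ _ _ ha with ⟨h1, h2⟩ | ⟨h1, h2⟩ | ⟨h1, h2⟩ | ⟨h1, h2⟩ | ⟨h1, h2⟩ | ⟨h1, h2⟩
    · exact caseSwap hil him hjl hjm hkl hkm hall a hij h1 h2
    · exact caseSwap (i := i) (j := j) (k := l) (l := k) (m := m) hik him hjk hjm hkl.symm hlm
        (fun n => by rcases hall n with h | h | h | h | h <;> tauto) a hij h1 h2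
    · exact caseSwap (i := i) (j := j) (k := m) (l := k) (m := l) hik hil hjk hjl hkm.symm hlm.symm
        (fun n => by rcases hall n with h | h | h | h | h <;> tauto) a hij h1 h2
    · exact caseSwap2 hne hik hil him hjk hjl hjm hkl hkm hlm hall a hij h1 (by rw [hij]; exact h2)
    · exact caseSwap2 (i := i) (j := j) (k := k) (l := m) (m := l) hne hik him hil hjk hjm hjl hkm hkl hlm.symm
        (fun n => by rcases hall n with h | h | h | h | h <;> tauto) a hij h1 (by rw [hij]; exact h2)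
    · exact caseSwap2 (i := i) (j := j) (k := l) (l := m) (m := k) hne hil him hik hjl hjm hjk hlm hkl.symm hkm.symm
        (fun n => by rcases hall n with h | h | h | h | h <;> tauto) a hij h1 (by rw [hij]; exact h2)

/-- **Sum-zero families in `ℤ/r`, `r ∈ {3, 5}`, of length `r`, are symmetric.** -/
theorem exists_involution {r : ℕ} (hr : r = 3 ∨ r = 5) (a : Fin r → ZMod r) (ha : ∑ i, a i = 0) :
    ∃ π : Equiv.Perm (Fin r), (∀ i, π (π i) = i) ∧ ∃ c, ∀ i, a i + a (π i) = c := by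
  rcases hr with rfl | rfl
  · exact three a ha
  · exact five a ha

end Cfsg.Agent.H956.SymMs
end

-- part: H956/SmallPrime
section
/-!
# Elements of order `r` in `PSL_r(q)`, `r = 3, 5`, `(q-1)_r = r`
-/

set_option autoImplicit false

namespace Cfsg.Agent.H956.SmallPrime

open Matrix Polynomial
open scoped MatrixGroups
open Cfsg.Agent.H956.Conj Cfsg.Agent.H956.DiagElt Cfsg.Agent.H956.DetIrr Cfsg.Agent.H956.FieldArith

variable {F : Type*} [Field F]

/-- a matrix with `r`-th power `s ^ r` is diagonalisable if there is a primitive `r`-th root of unity. -/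
theorem exists_of_pow_eq {ι : Type*} [Fintype ι] [DecidableEq ι] {r : ℕ} (hr : 0 < r) {ζ : F}
    (hζ : IsPrimitiveRoot ζ r) {s : F} (hs : s ≠ 0) (x : Matrix ι ι F)
    (hx : x ^ r = (s ^ r) • (1 : Matrix ι ι F)) :
    ∃ (S : GL ι F) (d : ι → F), x = (S : Matrix ι ι F) * Matrix.diagonal d * ((S⁻¹ : GL ι F) : Matrix ι ι F) ∧
      ∀ i, d i ^ r = s ^ r := by
  have htop : ⨆ a, Module.End.eigenspace (Matrix.toLin' x) a = ⊤ := by
    refine EigBasis.iSup_eigenspace_of_pow hr hζ _ hs ?_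
    rw [← Matrix.toLin'_pow, hx, map_smul, Matrix.toLin'_one]
    rfl
  obtain ⟨S, d, hSd⟩ := EigBasis.exists_conj_diagonal _ htop
  refine ⟨S, d, hSd, ?_⟩
  have hpow : ∀ k : ℕ, x ^ k = (S : Matrix ι ι F) * Matrix.diagonal (fun i => d i ^ k) *
      ((S⁻¹ : GL ι F) : Matrix ι ι F) := by
    intro k
    induction k with
    | zero => simp
    | succ k ih =>
      rw [pow_succ, ih]
      nth_rewrite 1 [hSd]
      calc (S : Matrix ι ι F) * Matrix.diagonal (fun i => d i ^ k) * ((S⁻¹ : GL ι F) : Matrix ι ι F) *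
          ((S : Matrix ι ι F) * Matrix.diagonal d * ((S⁻¹ : GL ι F) : Matrix ι ι F))
          = (S : Matrix ι ι F) * (Matrix.diagonal (fun i => d i ^ k) *
            (((S⁻¹ : GL ι F) : Matrix ι ι F) * (S : Matrix ι ι F)) * Matrix.diagonal d) *
              ((S⁻¹ : GL ι F) : Matrix ι ι F) := by simp only [Matrix.mul_assoc]
        _ = _ := by
          rw [inv_mul_self', Matrix.mul_one, Matrix.diagonal_mul_diagonal]
          simp only [pow_succ]
  have h3 : Matrix.diagonal (fun i => d i ^ r) = (s ^ r) • (1 : Matrix ι ι F) := by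
    calc Matrix.diagonal (fun i => d i ^ r)
        = (((S⁻¹ : GL ι F) : Matrix ι ι F) * (S : Matrix ι ι F)) * Matrix.diagonal (fun i => d i ^ r) *
          (((S⁻¹ : GL ι F) : Matrix ι ι F) * (S : Matrix ι ι F)) := by
          rw [inv_mul_self', Matrix.one_mul, Matrix.mul_one]
      _ = ((S⁻¹ : GL ι F) : Matrix ι ι F) * ((S : Matrix ι ι F) * Matrix.diagonal (fun i => d i ^ r) *
          ((S⁻¹ : GL ι F) : Matrix ι ι F)) * (S : Matrix ι ι F) := by simp only [Matrix.mul_assoc]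
      _ = _ := by rw [← hpow, hx, Matrix.mul_smul, Matrix.smul_mul, Matrix.mul_one, inv_mul_self']
  intro i
  have h5 := congrFun (congrFun h3 i) i
  simpa only [Matrix.diagonal_apply_eq, Matrix.smul_apply, Matrix.one_apply_eq, smul_eq_mul, mul_one] using h5

theorem det_conj_diagonal {ι : Type*} [Fintype ι] [DecidableEq ι] (S : GL ι F) (d : ι → F) :
    ((S : Matrix ι ι F) * Matrix.diagonal d * ((S⁻¹ : GL ι F) : Matrix ι ι F)).det = ∏ i, d i := by
  rw [Matrix.det_mul, Matrix.det_mul, mul_right_comm, ← Matrix.det_mul, mul_inv_self', Matrix.det_one, one_mul,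
    Matrix.det_diagonal]

/-- **`r ∈ {3, 5}`, `(q - 1)_r = r`: the elements of order `r` of `PSL_r(q)`.** -/
theorem main [Fintype F] {q : ℕ} (hq : Fintype.card F = q) {r : ℕ} [Fact r.Prime] (hr : r = 3 ∨ r = 5)
    (hv : padicValNat r (q - 1) = 1) {n : ℕ} (hn : n = r) (x : GL (Fin n) F)
    (hdet : (x : Matrix (Fin n) (Fin n) F).det = 1) {z : F}
    (hx : (x : Matrix (Fin n) (Fin n) F) ^ r = z • (1 : Matrix (Fin n) (Fin n) F)) :
    ∃ ζ : F, IsPrimitiveRoot ζ r ∧ ∃ (S : GL (Fin n) F) (a : Fin n → ZMod r) (π : Equiv.Perm (Fin n)) (c : ZMod r),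
      (x : Matrix (Fin n) (Fin n) F) = (S : Matrix (Fin n) (Fin n) F) *
        Matrix.diagonal (fun i => ζ ^ (a i).val) * ((S⁻¹ : GL (Fin n) F) : Matrix (Fin n) (Fin n) F) ∧
      (∀ i, π (π i) = i) ∧ ∀ i, a i + a (π i) = c := by
  classical
  subst hn
  have hrp : n.Prime := Fact.out
  have hodd : Odd n := by rcases hr with h | h <;> rw [h] <;> decide
  have hq1 : q - 1 ≠ 0 := by
    intro h
    rw [h] at hv
    simp at hv
  have hrq : n ∣ q - 1 := dvd_of_one_le_padicValNat (by omega)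
  obtain ⟨ζ, hζ⟩ := exists_prim (F := F) hq hrq
  -- `z` is an `r`-th power
  have hzpow : z ^ n = 1 := by
    have h1 := congrArg Matrix.det hx
    rw [Matrix.det_pow, hdet, one_pow, Matrix.det_smul, Matrix.det_one, mul_one, Fintype.card_fin] at h1
    exact h1.symm
  have hz0 : z ≠ 0 := by
    rintro rfl
    rw [zero_pow hrp.ne_zero] at hzpow
    exact zero_ne_one hzpow
  have hex : ∃ s : F, s ^ n = z := by
    by_contra hcon
    push Not at hcon
    have hirr : Irreducible (X ^ n - C z : F[X]) :=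
      (X_pow_sub_C_irreducible_iff_of_prime hrp).2 fun b hb => hcon b hb
    obtain ⟨k, hk1, hk2⟩ := det_of_pow_eq hrp.ne_zero hirr (x : Matrix (Fin n) (Fin n) F) hx
    have hk : k = 1 := by
      rw [Fintype.card_fin] at hk1
      have := hrp.pos
      nlinarith [Nat.eq_of_mul_eq_mul_left this (hk1.trans (mul_one n).symm)]
    rw [hk, pow_one, hdet, Even.neg_one_pow hodd.add_one, one_mul] at hk2
    exact hcon 1 (by rw [one_pow, hk2])
  obtain ⟨s, hs⟩ := hex
  have hs0 : s ≠ 0 := by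
    rintro rfl
    rw [zero_pow hrp.ne_zero] at hs
    exact hz0 hs.symm
  have hz1 : z = 1 := by
    have h1 : s ^ (n ^ 2) = 1 := by rw [pow_two, pow_mul, hs, hzpow]
    have h2 : s ^ (q - 1) = 1 := by rw [← hq]; exact FiniteField.pow_card_sub_one_eq_one s hs0
    have h3 := orderOf_dvd_of_pow_eq_one h1
    have h4 := orderOf_dvd_of_pow_eq_one h2
    obtain ⟨j, hj, hj'⟩ := (Nat.dvd_prime_pow hrp).1 h3
    have h5 : j ≤ 1 := by
      rw [hj', padicValNat_dvd_iff_le hq1, hv] at h4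
      exact h4
    have h6 : orderOf s ∣ n := by
      rw [hj']
      calc n ^ j ∣ n ^ 1 := pow_dvd_pow n h5
        _ = n := pow_one n
    rw [← hs]
    exact orderOf_dvd_iff_pow_eq_one.1 h6
  subst hz1
  obtain ⟨S, d, hSd, hd⟩ := exists_of_pow_eq hrp.pos hζ one_ne_zero (x : Matrix (Fin n) (Fin n) F) (by rw [hx, one_pow])
  have hne : NeZero n := ⟨hrp.ne_zero⟩
  have ha : ∀ i, ∃ a : ZMod n, ζ ^ a.val = d i := by
    intro i
    obtain ⟨j, hj, hj'⟩ := hζ.eq_pow_of_pow_eq_one (by rw [hd i, one_pow] : d i ^ n = 1)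
    exact ⟨(j : ZMod n), by rw [ZMod.val_natCast_of_lt hj, hj']⟩
  choose a ha using ha
  have hd' : d = fun i => ζ ^ (a i).val := funext fun i => (ha i).symm
  have hsum : ∑ i, a i = 0 := by
    have h1 := hdet
    rw [hSd, det_conj_diagonal, hd', Finset.prod_pow_eq_pow_sum] at h1
    have h2 := hζ.dvd_of_pow_eq_one _ h1
    rw [← ZMod.natCast_eq_zero_iff] at h2
    push_cast at h2
    simpa using h2
  obtain ⟨π, hπ, c, hc⟩ := SymMs.exists_involution hr a hsum
  exact ⟨ζ, hζ, S, a, π, c, by rw [hSd, hd'], hπ, hc⟩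

/-- product of two powers of a root of unity -/
theorem pow_val_mul {r : ℕ} [NeZero r] {ζ : F} (hζ : ζ ^ r = 1) (a b : ZMod r) :
    ζ ^ a.val * ζ ^ b.val = ζ ^ (a + b).val := by
  rw [ZMod.val_add, ← pow_add]
  nth_rewrite 1 [← Nat.mod_add_div (a.val + b.val) r]
  rw [pow_add, pow_mul, hζ, one_pow, mul_one]

end Cfsg.Agent.H956.SmallPrime
end
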